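import Cfsg.Agent.H723.Pair.BWord
import Cfsg.Agent.H547.SelfCent.Conway
import Cfsg.Agent.H863.BRep
import Cfsg.Agent.BabyM.Instance

/-!
# The centralizer of an element of order 22 of the Baby Monster (helper723)

`z` is the central involution of `C = 2^{1+22}.Co2` and `u` an element of order 11 of `C`. The order of `C_G(z u)`
divides `|C|` and is not divisible by `23`: elements of order 23 of `Co2` do not commute with elements of order 11.
-/

set_option autoImplicit false
set_option maxRecDepth 100000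

namespace Cfsg.Agent.H723.Pair.BCent

open Subgroup
open Cfsg.Agent.BabyM.Conc Cfsg.Agent.BabyM Cfsg.Agent.Monster.VecSpace Cfsg.Agent.Monster.VecEngine
open Cfsg.Agent.H863.BRep Cfsg.Agent.H723.Pair.BTrace

/-- the central involution -/
noncomputable def zG : G := gW [.z]

/-- the element of order 11 -/
noncomputable def uG : G := gW [.p]

theorem zG_eq : (zG : V ≃ₗ[ℚ] V) = Inst.M.z := by
  show W [.z] = z
  rw [W_cons, W_nil, one_mul]
  rfl

theorem zG_sq : zG ^ 2 = 1 := Subtype.ext z2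

theorem uG_pow : uG ^ 11 = 1 := Subtype.ext p11

theorem uG_ne : uG ≠ 1 := fun h => W_ne_one tr11 (by norm_num) (congrArg Subtype.val h)

theorem orderOf_uG : orderOf uG = 11 := by
  have : Fact (Nat.Prime 11) := ⟨by norm_num⟩
  exact orderOf_eq_prime uG_pow uG_ne

theorem comm : zG * uG = uG * zG := by
  have h1 : uG ^ 10 * (zG * (uG * zG)) = 1 := by
    apply Subtype.ext
    have h2 := comm_zp
    rw [show ([.z, .p, .z, .p, .p, .p, .p, .p, .p, .p, .p, .p, .p] : List Ltr) =
      [.z] ++ [.p] ++ [.z] ++ (List.replicate 10 [.p]).flatten from rfl, W_append, W_append, W_append, ← W_pow] at h2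
    exact h2
  have h3 : zG * zG = 1 := by rw [← pow_two]; exact zG_sq
  have h4 : uG * uG ^ 10 = 1 := by rw [← pow_succ']; exact uG_pow
  calc zG * uG = uG * uG ^ 10 * (zG * uG) * (zG * zG) := by rw [h4, h3, one_mul, mul_one]
    _ = uG * (uG ^ 10 * (zG * (uG * zG))) * zG := by simp only [mul_assoc]
    _ = uG * zG := by rw [h1, mul_one]

/-- the element of order 22 -/
noncomputable def wG : G := gW [.z, .p]

theorem wG_eq : wG = zG * uG := by
  rw [comm]
  apply Subtype.ext
  show W [.z, .p] = W [.p] * W [.z]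
  rw [← W_append]
  rfl

theorem wG_pow_11 : wG ^ 11 = zG := by
  rw [wG_eq, (show Commute zG uG from comm).mul_pow, uG_pow, mul_one, show 11 = 2 * 5 + 1 from rfl, pow_succ, pow_mul,
    zG_sq, one_pow, one_mul]

theorem wG_pow_12 : wG ^ 12 = uG := by
  rw [wG_eq, (show Commute zG uG from comm).mul_pow, show 12 = 11 + 1 from rfl, pow_succ uG, uG_pow, one_mul,
    show 11 + 1 = 2 * 6 from rfl, pow_mul, zG_sq, one_pow, one_mul]

theorem mem_C {s : G} (h : s * zG = zG * s) : (s : V ≃ₗ[ℚ] V) ∈ Inst.M.C := by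
  refine Instance.all.cent_z s s.2 ?_
  rw [← zG_eq]
  exact congrArg Subtype.val h

/-- the centralizer of `z` embeds in `C` -/
theorem card_cent_z : Nat.card (centralizer ({zG} : Set G)) ∣ 2 ^ 23 * 42305421312000 := by
  rw [← Instance.all.grp.card_C]
  let f : ↥(centralizer ({zG} : Set G)) →* ↥Inst.M.C :=
    { toFun := fun s => ⟨(s : G), mem_C (mem_centralizer_singleton_iff.1 s.2)⟩
      map_one' := rfl
      map_mul' := fun _ _ => rfl }
  refine Subgroup.card_dvd_of_injective f ?_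
  intro a b h
  exact Subtype.ext (Subtype.ext (congrArg (fun c : ↥Inst.M.C => (c : V ≃ₗ[ℚ] V)) h))

theorem not_dvd_23 : ¬ 23 ∣ Nat.card (centralizer ({wG} : Set G)) := by
  intro hd
  have : Fact (Nat.Prime 23) := ⟨by norm_num⟩
  have hfC : Finite (centralizer ({zG} : Set G)) := Nat.finite_of_card_ne_zero (by
    intro h
    have := card_cent_z
    rw [h, zero_dvd_iff] at this
    norm_num at this)
  have hle : centralizer ({wG} : Set G) ≤ centralizer ({zG} : Set G) := by
    intro c hc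
    rw [mem_centralizer_singleton_iff] at hc ⊢
    rw [← wG_pow_11]
    exact ((show Commute c wG from hc).pow_right 11).eq
  have hle' : centralizer ({wG} : Set G) ≤ centralizer ({uG} : Set G) := by
    intro c hc
    rw [mem_centralizer_singleton_iff] at hc ⊢
    rw [← wG_pow_12]
    exact ((show Commute c wG from hc).pow_right 12).eq
  have hfw : Finite (centralizer ({wG} : Set G)) := Finite.of_injective _ (Subgroup.inclusion_injective hle)
  obtain ⟨⟨s, hs⟩, hs23⟩ := exists_prime_orderOf_dvd_card' (G := ↥(centralizer ({wG} : Set G))) 23 hd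
  rw [Subgroup.orderOf_mk] at hs23
  have hsz := mem_centralizer_singleton_iff.1 (hle hs)
  have hsu := mem_centralizer_singleton_iff.1 (hle' hs)
  obtain ⟨π, hπ, hker⟩ := Instance.all.grp.quot
  have hsC := mem_C hsz
  have huC : (uG : V ≃ₗ[ℚ] V) ∈ Inst.M.C := mem_C comm.symm
  -- the kernel is a 2-group
  have hodd : ∀ (c : ↥Inst.M.C) (n : ℕ), Odd n → c ^ n = 1 → π c = 1 → c = 1 := by
    intro c n hn hcn hc
    have h1 : ((c : V ≃ₗ[ℚ] V)) ∈ Inst.M.Q := (hker c).1 hc
    have h2 : orderOf (c : V ≃ₗ[ℚ] V) ∣ 2 ^ 23 := by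
      rw [← Instance.all.grp.Q_card]
      exact Subgroup.orderOf_dvd_natCard _ h1
    have h3 : orderOf c ∣ 2 ^ 23 := by
      have h4 : orderOf (c : V ≃ₗ[ℚ] V) = orderOf c := by
        rw [← Subgroup.orderOf_mk (c : V ≃ₗ[ℚ] V) c.2]
      rwa [← h4]
    have h4 : orderOf c ∣ n := orderOf_dvd_of_pow_eq_one hcn
    have h5 : orderOf c ∣ 1 := by
      have h6 : Nat.Coprime (2 ^ 23) n := Nat.Coprime.pow_left _ (Nat.coprime_two_left.2 hn)
      rw [← h6]
      exact Nat.dvd_gcd h3 h4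
    exact orderOf_eq_one_iff.1 (Nat.dvd_one.1 h5)
  have hs1 : s ^ 23 = 1 := by rw [← hs23]; exact pow_orderOf_eq_one s
  have hsne : s ≠ 1 := by
    rintro rfl
    rw [orderOf_one] at hs23
    norm_num at hs23
  obtain ⟨sC, hsC'⟩ : ∃ sC : ↥Inst.M.C, sC = ⟨s, hsC⟩ := ⟨_, rfl⟩
  obtain ⟨uC, huC'⟩ : ∃ uC : ↥Inst.M.C, uC = ⟨uG, huC⟩ := ⟨_, rfl⟩
  have hsC1 : sC ^ 23 = 1 := by
    rw [hsC']
    exact Subtype.ext (show (s : V ≃ₗ[ℚ] V) ^ 23 = 1 from congrArg Subtype.val hs1)
  have huC1 : uC ^ 11 = 1 := by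
    rw [huC']
    exact Subtype.ext (show (uG : V ≃ₗ[ℚ] V) ^ 11 = 1 from congrArg Subtype.val uG_pow)
  have hsC2 : sC ≠ 1 := by
    rw [hsC']
    intro h
    exact hsne (Subtype.ext (show (s : V ≃ₗ[ℚ] V) = 1 from congrArg Subtype.val h))
  have huC2 : uC ≠ 1 := by
    rw [huC']
    intro h
    exact uG_ne (Subtype.ext (show (uG : V ≃ₗ[ℚ] V) = 1 from congrArg Subtype.val h))
  have hcm : uC * sC = sC * uC := by
    rw [hsC', huC']
    exact Subtype.ext (show (uG : V ≃ₗ[ℚ] V) * s = s * uG from congrArg Subtype.val hsu.symm)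
  have o1 : orderOf (π sC) = 23 := by
    refine orderOf_eq_prime (by rw [← map_pow, hsC1, map_one]) ?_
    intro h
    exact hsC2 (hodd sC 23 (by decide) hsC1 h)
  have o2 : (π uC) ^ 46 = 1 := by
    apply Subtype.ext
    have h1 := Cfsg.Agent.H547.SelfCent.Conway.co0_exp (x := ((π sC : GroupInst.K₀) : Cfsg.Co0))
      (g := ((π uC : GroupInst.K₀) : Cfsg.Co0)) (by rw [← o1, ← Subgroup.orderOf_mk _ (π sC).2]) ?_
    · exact h1
    · exact congrArg Subtype.val (show π uC * π sC = π sC * π uC by rw [← map_mul, hcm, map_mul])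
  have o3 : (π uC) ^ 11 = 1 := by rw [← map_pow, huC1, map_one]
  have o4 : π uC = 1 := by
    have h1 : orderOf (π uC) ∣ 46 := orderOf_dvd_of_pow_eq_one o2
    have h2 : orderOf (π uC) ∣ 11 := orderOf_dvd_of_pow_eq_one o3
    have h3 : orderOf (π uC) ∣ Nat.gcd 46 11 := Nat.dvd_gcd h1 h2
    have h4 : Nat.gcd 46 11 = 1 := by norm_num
    rw [h4] at h3
    exact orderOf_eq_one_iff.1 (Nat.dvd_one.1 h3)
  exact huC2 (hodd uC 11 (by decide) huC1 o4)

theorem card_cent_w : Nat.card (centralizer ({wG} : Set G)) ∣ 2 ^ 41 * 3 ^ 6 * 5 ^ 3 * 7 * 11 := by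
  have hle : centralizer ({wG} : Set G) ≤ centralizer ({zG} : Set G) := by
    intro c hc
    rw [mem_centralizer_singleton_iff] at hc ⊢
    rw [← wG_pow_11]
    exact ((show Commute c wG from hc).pow_right 11).eq
  have h1 := (Subgroup.card_dvd_of_le hle).trans card_cent_z
  have h2 : 2 ^ 23 * 42305421312000 = (2 ^ 41 * 3 ^ 6 * 5 ^ 3 * 7 * 11) * 23 := by norm_num
  rw [h2] at h1
  exact (Nat.Coprime.symm ((Nat.Prime.coprime_iff_not_dvd (by norm_num)).2 not_dvd_23)).dvd_of_dvd_mul_right h1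

end Cfsg.Agent.H723.Pair.BCent
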